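import Cfsg.Agent.H314.CY.PsuAct

/-!
# S4829, `PSU_n(q)`, `n ≥ 4`, `p ∣ q - 1`, `p ∤ ⌊n/2⌋ - 1` (helper314)

`rowA_psu_hone` : the row, from the rank 3 action on the isotropic points.
-/

set_option autoImplicit false
set_option linter.unusedSectionVars false

open MulAction Matrix

namespace Cfsg.Agent.H314.CY.Psu

open Cfsg Cfsg.Agent.LieClassical.HermBasic Cfsg.Agent.LieClassical.HermSiegel
open Cfsg.Agent.H690.Spor.RankThree Cfsg.Agent.H690.Spor.RankThree.R3 Cfsg.Agent.H770.CY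
open Cfsg.Agent.ClassicalGeometry.PSUAutBasic Cfsg.Agent.ClassicalGeometry

universe u

variable {F : Type u} [Field F] [Fintype F] {q n : ℕ}

section elt

variable (hF : Fintype.card F = q ^ 2) {e f : Fin n → F} (hee : hermForm n F q e e = 0)
  (hff : hermForm n F q f f = 0) (hef : hermForm n F q e f = 1)

include hF hee hff hef

/-- the element `ζ` on `e`, `ζ⁻¹` on `f`, `1` on the complement -/
theorem exists_z {ζ : F} (h0 : ζ ≠ 0) (hq : ζ ^ q = ζ) {N : ℕ} (hN : ζ ^ N = 1) : ∃ z : SU n F q, z ^ N = 1 ∧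
    ∀ v, act z v = v + ((ζ⁻¹ - 1) * hermForm n F q v e) • f + ((ζ - 1) * hermForm n F q v f) • e := by
  have hfe : hermForm n F q f e = 1 := by rw [herm_swap hF e f, hef, one_pow]
  have hdet : (PSUAutTorus.hypMat q e f ζ).det = 1 := by
    rw [PSUAutTorus.det_hypMat hef hfe, hq, mul_inv_cancel₀ h0]
  obtain ⟨z, hz⟩ : ∃ z : SU n F q, z = mkSU (PSUAutTorus.hypMat q e f ζ) hdet
    (PSUAutTorus.hypMat_herm hF hee hff hef h0) := ⟨_, rfl⟩
  have hact : ∀ v, act z v = v + ((ζ⁻¹ - 1) * hermForm n F q v e) • f + ((ζ - 1) * hermForm n F q v f) • e := by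
    intro v
    rw [hz, act_def, mat_mkSU, PSUAutTorus.hypMat_mulVec hff, hq]
  have hpow : ∀ (j : ℕ) v, act (z ^ j) v = v + ((ζ⁻¹ ^ j - 1) * hermForm n F q v e) • f +
      ((ζ ^ j - 1) * hermForm n F q v f) • e := by
    intro j
    induction j with
    | zero => intro v; rw [pow_zero, act_one]; simp
    | succ j ih =>
      intro v
      rw [pow_succ', act_mul, ih, hact]
      simp only [herm_add_left, herm_smul_left, hee, hff, hef, hfe, mul_one, mul_zero, add_zero]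
      rw [pow_succ, pow_succ]
      module
  refine ⟨z, ?_, hact⟩
  apply LieClassical.HermSiegel.ext_act
  intro v
  rw [hpow, hN, inv_pow, hN, act_one]
  simp

/-- the eigenvectors of `z` -/
theorem eig_cases {ζ : F} (h0 : ζ ≠ 0) (h1 : ζ ≠ 1) (h2 : ζ ^ 2 ≠ 1) {z : SU n F q}
    (hz : ∀ v, act z v = v + ((ζ⁻¹ - 1) * hermForm n F q v e) • f + ((ζ - 1) * hermForm n F q v f) • e)
    {v : Fin n → F} {c : F} (h : act z v = c • v) :
    v = hermForm n F q v e • f ∨ v = hermForm n F q v f • e ∨ (hermForm n F q v e = 0 ∧ hermForm n F q v f = 0) := by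
  have hfe : hermForm n F q f e = 1 := by rw [herm_swap hF e f, hef, one_pow]
  obtain ⟨a, ha⟩ : ∃ a, a = hermForm n F q v e := ⟨_, rfl⟩
  obtain ⟨b, hb⟩ : ∃ b, b = hermForm n F q v f := ⟨_, rfl⟩
  have hv := hz v
  rw [h, ← ha, ← hb] at hv
  have e1 := congrArg (fun u => hermForm n F q u e) hv
  have e2 := congrArg (fun u => hermForm n F q u f) hv
  simp only [herm_add_left, herm_smul_left, hee, hff, hef, hfe, mul_one, mul_zero, add_zero, ← ha, ← hb] at e1 e2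
  rw [← ha, ← hb]
  by_cases hb0 : b = 0
  · by_cases ha0 : a = 0
    · exact Or.inr (Or.inr ⟨ha0, hb0⟩)
    · left
      have hc : c = ζ⁻¹ := mul_right_cancel₀ ha0 (by rw [e1]; ring)
      rw [hb0, mul_zero, zero_smul, add_zero, hc] at hv
      have h3 : (ζ⁻¹ - 1) • v = (ζ⁻¹ - 1) • (a • f) := by
        rw [sub_smul, one_smul, hv, smul_smul]
        abel
      have h4 : ζ⁻¹ - 1 ≠ 0 := by
        rw [sub_ne_zero]
        intro h5
        exact h1 (inv_eq_one.1 h5)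
      have h6 := congrArg (fun u => (ζ⁻¹ - 1)⁻¹ • u) h3
      simp only [smul_smul, ← mul_assoc, inv_mul_cancel₀ h4, one_smul, one_mul] at h6
      exact h6
  · have hc : c = ζ := mul_right_cancel₀ hb0 (by rw [e2]; ring)
    have ha0 : a = 0 := by
      by_contra ha0
      have hc' : c = ζ⁻¹ := mul_right_cancel₀ ha0 (by rw [e1]; ring)
      apply h2
      rw [pow_two]
      nth_rewrite 1 [← hc, hc']
      exact inv_mul_cancel₀ h0
    right; left
    rw [ha0, mul_zero, zero_smul, add_zero, hc] at hv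
    have h3 : (ζ - 1) • v = (ζ - 1) • (b • e) := by
      rw [sub_smul, one_smul, hv, smul_smul]
      abel
    have h4 : ζ - 1 ≠ 0 := sub_ne_zero.2 h1
    have h6 := congrArg (fun u => (ζ - 1)⁻¹ • u) h3
    simp only [smul_smul, ← mul_assoc, inv_mul_cancel₀ h4, one_smul, one_mul] at h6
    exact h6

end elt

/-! ### the local condition -/

section loc

variable (hF : Fintype.card F = q ^ 2) (hn : 3 ≤ n) {e f : Fin n → F} (hee : hermForm n F q e e = 0)
  (hff : hermForm n F q f f = 0) (hef : hermForm n F q e f = 1)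

include hef in
theorem e0 : e ≠ 0 := by
  rintro rfl
  rw [herm_zero_left] at hef
  exact zero_ne_one hef

include hF hef in
theorem f0 : f ≠ 0 := by
  rintro rfl
  rw [herm_zero_right hF] at hef
  exact zero_ne_one hef

include hee hff hef

theorem fix_iff {z : SU n F q} {v : Fin n → F} {h0 : v ≠ 0} {h : hermForm n F q v v = 0} :
    pr n F q z • mk hF hn v h0 h = mk hF hn v h0 h ↔ ∃ c : F, c ≠ 0 ∧ act z v = c • v := by
  rw [pr_smul_mk, mk_eq_iff]

theorem loc_one {ζ : F} (h0 : ζ ≠ 0) (h1 : ζ ≠ 1) (h2 : ζ ^ 2 ≠ 1) {z : SU n F q}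
    (hz : ∀ v, act z v = v + ((ζ⁻¹ - 1) * hermForm n F q v e) • f + ((ζ - 1) * hermForm n F q v f) • e) :
    ∃ x' : Pts hF hn, ∀ w, pr n F q z • w = w → w ≠ mk hF hn e (e0 hef) hee →
      ¬ PRel hF hn (mk hF hn e (e0 hef) hee) w → w = x' := by
  refine ⟨mk hF hn f (f0 hF hef) hff, fun w hw hwe hwr => ?_⟩
  obtain ⟨v, v0, hv, rfl⟩ := exists_mk hF hn w
  rw [fix_iff hF hn hee hff hef] at hw
  obtain ⟨c, hc, hcv⟩ := hw
  rcases eig_cases hF hee hff hef h0 h1 h2 hz hcv with h3 | h3 | ⟨h3, h4⟩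
  · rw [mk_eq_iff]
    refine ⟨_, fun h4 => v0 ?_, h3⟩
    rw [h3, h4, zero_smul]
  · exfalso
    apply hwe
    rw [mk_eq_iff]
    refine ⟨_, fun h4 => v0 ?_, h3⟩
    rw [h3, h4, zero_smul]
  · exfalso
    apply hwr
    rw [prel_iff]
    refine ⟨?_, herm_eq_zero_swap hF h3⟩
    rintro ⟨d, hd, h5⟩
    rw [h5, herm_smul_left, h4, mul_zero] at hef
    exact zero_ne_one hef

theorem loc_two {ζ : F} (h0 : ζ ≠ 0) (h1 : ζ ≠ 1) (h2 : ζ ^ 2 ≠ 1) {z : SU n F q}
    (hz : ∀ v, act z v = v + ((ζ⁻¹ - 1) * hermForm n F q v e) • f + ((ζ - 1) * hermForm n F q v f) • e)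
    (y : Pts hF hn) (hy : pr n F q z • y = y) (hy' : PRel hF hn (mk hF hn e (e0 hef) hee) y) :
    ∃ w₁ w₂ : Pts hF hn, w₁ ≠ w₂ ∧ (pr n F q z • w₁ = w₁ ∧ w₁ ≠ y ∧ ¬ PRel hF hn y w₁) ∧
      (pr n F q z • w₂ = w₂ ∧ w₂ ≠ y ∧ ¬ PRel hF hn y w₂) := by
  obtain ⟨v, v0, hv, rfl⟩ := exists_mk hF hn y
  rw [fix_iff hF hn hee hff hef] at hy
  obtain ⟨c, hc, hcv⟩ := hy
  rw [prel_iff] at hy'
  obtain ⟨hy1, hy2⟩ := hy'
  rcases eig_cases hF hee hff hef h0 h1 h2 hz hcv with h3 | h3 | ⟨h3, h4⟩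
  · exfalso
    rw [h3, herm_smul_right, hef, mul_one] at hy2
    rw [pow_q_eq_zero hF] at hy2
    rw [hy2, zero_smul] at h3
    exact v0 h3
  · exfalso
    obtain ⟨d, hd⟩ : ∃ d, d = hermForm n F q v f := ⟨_, rfl⟩
    rw [← hd] at h3
    have hd0 : d ≠ 0 := by
      rintro rfl
      rw [zero_smul] at h3
      exact v0 h3
    exact hy1 ⟨d⁻¹, inv_ne_zero hd0, by rw [h3, smul_smul, inv_mul_cancel₀ hd0, one_smul]⟩
  · -- a partner of `v` in the complement
    obtain ⟨u, hu, huu, hvu⟩ := Cfsg.Agent.H77.Geom.exists_partner hF (S := {e, f}) hv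
      (by
        intro s hs
        rcases hs with rfl | hs
        · exact h3
        · rw [Set.mem_singleton_iff] at hs
          rw [hs]
          exact h4)
      (by
        intro hm
        obtain ⟨a, b, hab⟩ := Submodule.mem_span_pair.1 hm
        have hfe : hermForm n F q f e = 1 := by rw [herm_swap hF e f, hef, one_pow]
        rw [← hab] at h3 h4
        rw [herm_add_left, herm_smul_left, herm_smul_left, hee, hfe] at h3
        rw [herm_add_left, herm_smul_left, herm_smul_left, hef, hff] at h4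
        apply v0
        rw [← hab]
        have hb : b = 0 := by simpa using h3
        have ha : a = 0 := by simpa using h4
        rw [ha, hb, zero_smul, zero_smul, add_zero])
    have hue : hermForm n F q u e = 0 := hu e (Set.mem_insert _ _)
    have huf : hermForm n F q u f = 0 := hu f (Set.mem_insert_of_mem _ rfl)
    have huv : hermForm n F q u v = 1 := by rw [herm_swap hF v u, hvu, one_pow]
    obtain ⟨t, ht0, ht⟩ := exists_trace_zero_ne hF
    have hu0 : u ≠ 0 := by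
      rintro rfl
      rw [herm_zero_right hF] at hvu
      exact zero_ne_one hvu
    have hw : ∀ w : Fin n → F, hermForm n F q w e = 0 → hermForm n F q w f = 0 → act z w = (1 : F) • w := by
      intro w h5 h6
      rw [hz, h5, h6, mul_zero, mul_zero, zero_smul, zero_smul, add_zero, add_zero, one_smul]
    have hv2 : hermForm n F q v (u + t • v) = 1 := by
      rw [herm_add_right hF, herm_smul_right, hv, mul_zero, add_zero, hvu]
    have hw0 : u + t • v ≠ 0 := by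
      intro h5
      rw [h5, herm_zero_right hF] at hv2
      exact zero_ne_one hv2
    have hww : hermForm n F q (u + t • v) (u + t • v) = 0 := by
      rw [herm_add_left, herm_smul_left, hv2, herm_add_right hF, herm_smul_right, huu, huv, mul_one, mul_one, zero_add]
      rw [add_comm]; exact ht
    have hne : ∀ (w : Fin n → F) (w0 : w ≠ 0) (hw : hermForm n F q w w = 0), hermForm n F q v w = 1 →
        mk hF hn w w0 hw ≠ mk hF hn v v0 hv ∧ ¬ PRel hF hn (mk hF hn v v0 hv) (mk hF hn w w0 hw) := by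
      intro w w0 hw h5
      refine ⟨fun h6 => ?_, fun h6 => ?_⟩
      · rw [mk_eq_iff] at h6
        obtain ⟨d, hd, hd'⟩ := h6
        rw [hd', herm_smul_right, hv, mul_zero] at h5
        exact zero_ne_one h5
      · rw [prel_iff] at h6
        rw [h6.2] at h5
        exact zero_ne_one h5
    refine ⟨mk hF hn u hu0 huu, mk hF hn (u + t • v) hw0 hww, ?_, ⟨?_, hne u hu0 huu hvu⟩, ⟨?_, hne _ hw0 hww hv2⟩⟩
    · intro h5
      rw [mk_eq_iff] at h5
      obtain ⟨d, hd, hd'⟩ := h5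
      have h6 := congrArg (fun w => hermForm n F q w v) hd'
      simp only [herm_smul_left, herm_add_left, hv, mul_zero, add_zero, huv, mul_one] at h6
      have h7 := congrArg (fun w => hermForm n F q w u) hd'
      simp only [herm_smul_left, herm_add_left, huu, hvu, zero_add, mul_one] at h7
      rw [← h6, one_mul] at h7
      exact ht0 h7.symm
    · rw [fix_iff hF hn hee hff hef]
      exact ⟨1, one_ne_zero, hw u hue huf⟩
    · rw [fix_iff hF hn hee hff hef]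
      exact ⟨1, one_ne_zero, hw _ (by rw [herm_add_left, herm_smul_left, hue, h3, mul_zero, add_zero])
        (by rw [herm_add_left, herm_smul_left, huf, h4, mul_zero, add_zero])⟩

end loc

/-! ### arithmetic -/

theorem dvd_pow_sub_one {p : ℕ} {Q : ℤ} (h : (p : ℤ) ∣ Q - 1) (j : ℕ) : (p : ℤ) ∣ Q ^ j - 1 := by
  have := sub_dvd_pow_sub_pow Q 1 j
  rw [one_pow] at this
  exact h.trans this

theorem not_dvd_pow_add_one {p : ℕ} [hp : Fact p.Prime] (hp2 : p ≠ 2) {Q : ℤ} (h : (p : ℤ) ∣ Q - 1) (j : ℕ) :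
    ¬ (p : ℤ) ∣ Q ^ j + 1 := by
  intro h1
  have h2 := dvd_sub h1 (dvd_pow_sub_one h j)
  have e : Q ^ j + 1 - (Q ^ j - 1) = ((2 : ℕ) : ℤ) := by push_cast; ring
  rw [e, Int.natCast_dvd_natCast] at h2
  exact hp2 ((Nat.prime_dvd_prime_iff_eq hp.out Nat.prime_two).1 h2)

/-- `b ≡ 2 j` -/
theorem not_dvd_b {p : ℕ} [hp : Fact p.Prime] (hp2 : p ≠ 2) {q m b : ℕ} (hq2 : 2 ≤ q) (hpq : (p : ℤ) ∣ (q : ℤ) - 1)
    (hw : ¬ p ∣ m / 2) (hm : 2 ≤ m)
    (hb : ((q : ℤ) ^ 2 - 1) * b = ((q : ℤ) ^ m - (-1) ^ m) * (q ^ (m - 1) + (-1) ^ m)) : ¬ p ∣ b := by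
  have hQ0 : ((q : ℤ) ^ 2 - 1) ≠ 0 := by
    have : (2 : ℤ) ≤ q := by exact_mod_cast hq2
    nlinarith
  have hgeo : ∀ j : ℕ, (∑ i ∈ Finset.range j, ((q : ℤ) ^ 2) ^ i) * ((q : ℤ) ^ 2 - 1) = (q : ℤ) ^ (2 * j) - 1 := by
    intro j
    rw [pow_mul]
    exact geom_sum_mul ((q : ℤ) ^ 2) j
  have hgm : ∀ j : ℕ, (p : ℤ) ∣ (∑ i ∈ Finset.range j, ((q : ℤ) ^ 2) ^ i) - j := by
    intro j
    induction j with
    | zero => simp
    | succ j ih =>
      rw [Finset.sum_range_succ]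
      have h1 : (p : ℤ) ∣ ((q : ℤ) ^ 2) ^ j - 1 := by
        rw [← pow_mul]
        exact dvd_pow_sub_one hpq _
      have h2 := dvd_add ih h1
      have e : (∑ i ∈ Finset.range j, ((q : ℤ) ^ 2) ^ i) - j + (((q : ℤ) ^ 2) ^ j - 1) =
          ∑ i ∈ Finset.range j, ((q : ℤ) ^ 2) ^ i + ((q : ℤ) ^ 2) ^ j - ((j + 1 : ℕ) : ℤ) := by push_cast; ring
      rwa [e] at h2
  have key : ∀ (j i : ℕ), ¬ p ∣ j → (b : ℤ) = (∑ i ∈ Finset.range j, ((q : ℤ) ^ 2) ^ i) * ((q : ℤ) ^ i + 1) → ¬ p ∣ b := by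
    intro j i hj hbj hpb
    have h1 : (p : ℤ) ∣ b := Int.natCast_dvd_natCast.2 hpb
    rw [hbj] at h1
    have hpI : Prime (p : ℤ) := Nat.prime_iff_prime_int.1 hp.out
    rcases hpI.dvd_or_dvd h1 with h2 | h2
    · have h3 := dvd_sub h2 (hgm j)
      rw [sub_sub_cancel, Int.natCast_dvd_natCast] at h3
      exact hj h3
    · exact not_dvd_pow_add_one hp2 hpq _ h2
  rcases Nat.even_or_odd' m with ⟨j, hj | hj⟩
  · subst hj
    have e0 : 2 * j / 2 = j := by omega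
    rw [e0] at hw
    refine key j (2 * j - 1) hw ?_
    apply mul_left_cancel₀ hQ0
    rw [hb, pow_mul (-1 : ℤ), neg_one_sq, one_pow]
    linear_combination (-((q : ℤ) ^ (2 * j - 1) + 1)) * hgeo j
  · subst hj
    have e0 : (2 * j + 1) / 2 = j := by omega
    rw [e0] at hw
    refine key j (2 * j + 1) hw ?_
    apply mul_left_cancel₀ hQ0
    have e1 : (-1 : ℤ) ^ (2 * j + 1) = -1 := by rw [pow_succ, pow_mul, neg_one_sq, one_pow, one_mul]
    rw [hb, e1, Nat.add_sub_cancel]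
    linear_combination (-((q : ℤ) ^ (2 * j + 1) + 1)) * hgeo j

/-! ### the row -/

/-- **`PSU_n(q)`, `p ∣ q - 1`, `p ∤ ⌊n/2⌋ - 1`** -/
theorem rowA_psu_hone (hF : Fintype.card F = q ^ 2) (hn : 4 ≤ n) {p : ℕ} [hp : Fact p.Prime] (hp2 : p ≠ 2)
    (hpq : p ∣ q - 1) (hw : ¬ p ∣ n / 2 - 1) [Fintype (PSU n F q)] : RowA p (PSU n F q) := by
  classical
  obtain ⟨m, rfl⟩ : ∃ m, n = m + 2 := ⟨n - 2, by omega⟩
  have hm : 2 ≤ m := by omega
  have hn3 : 3 ≤ m + 2 := by omega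
  have hw' : ¬ p ∣ m / 2 := by
    have : (m + 2) / 2 - 1 = m / 2 := by omega
    rwa [this] at hw
  have hq2 := two_le hF
  have hpq' : (p : ℤ) ∣ (q : ℤ) - 1 := by
    have := Int.natCast_dvd_natCast.2 hpq
    rwa [Nat.cast_sub (by omega), Nat.cast_one] at this
  obtain ⟨b, hb0, hb, hr3, x₁, y₁, hxy, hR, hcom⟩ := r3p (F := F) (m := m) hF hm hn3
  have hpb := not_dvd_b hp2 hq2 hpq' hw' hm hb
  have hpk : ¬ p ∣ q ^ 2 * b := by
    intro h
    rcases hp.out.dvd_mul.1 h with h | h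
    · have h1 := hp.out.dvd_of_dvd_pow h
      have h2 : (p : ℤ) ∣ (q : ℤ) - ((q : ℤ) - 1) := dvd_sub (Int.natCast_dvd_natCast.2 h1) hpq'
      rw [sub_sub_cancel] at h2
      have h3 : p ∣ 1 := by exact_mod_cast h2
      exact hp.out.one_lt.ne' (Nat.dvd_one.1 h3)
    · exact hpb h
  -- the numbers
  obtain ⟨e, he⟩ : ∃ e : ℤ, e = (-1) ^ m := ⟨_, rfl⟩
  have hee' : e * e = 1 := by rw [he, ← mul_pow]; simp
  have hb' := hb
  rw [← he] at hb'
  obtain ⟨Q, hQ⟩ : ∃ Q : ℤ, Q = (q : ℤ) := ⟨_, rfl⟩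
  have hQ2 : 2 ≤ Q := by rw [hQ]; exact_mod_cast hq2
  obtain ⟨P, hP⟩ : ∃ P : ℤ, P = (q : ℤ) ^ (m - 1) := ⟨_, rfl⟩
  have hP2 : 2 ≤ P := by
    have h1 : q ^ 1 ≤ q ^ (m - 1) := Nat.pow_le_pow_right (by omega) (by omega)
    rw [pow_one] at h1
    rw [hP]
    exact_mod_cast hq2.trans h1
  have hm0 : (q : ℤ) ^ m = Q * P := by
    rw [hP, hQ, ← pow_succ']; congr 1; omega
  have hl : ((q ^ (2 * m + 1) : ℕ) : ℤ) = Q ^ 3 * P ^ 2 := by
    push_cast
    have : 2 * m + 1 = m + (m + 1) := by ring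
    rw [this, pow_add, pow_succ (q : ℤ) m, hm0, ← hQ]; ring
  have hkl : ((q ^ 2 * b : ℕ) : ℤ) = Q ^ 2 * b := by push_cast; rw [hQ]
  rw [hm0, ← hP, ← hQ] at hb'
  have hPd : Q ∣ P := by
    rw [hP, hQ]
    exact dvd_pow_self _ (by omega)
  have hne : q ^ 2 * b ≠ q ^ (2 * m + 1) := by
    intro h
    have h1 : Q ^ 2 * b = Q ^ 3 * P ^ 2 := by rw [← hkl, h, hl]
    have h2 : (b : ℤ) = Q * P ^ 2 := by
      apply mul_left_cancel₀ (pow_ne_zero 2 (by omega : Q ≠ 0))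
      rw [h1]; ring
    rw [h2] at hb'
    have h3 : Q ∣ e * e := by
      obtain ⟨P', hP'⟩ := hPd
      refine ⟨P ^ 2 + P * e - e * P' - (Q ^ 2 - 1) * P ^ 2, ?_⟩
      have : e * P = e * (Q * P') := by rw [hP']
      linear_combination hb' - this
    rw [hee'] at h3
    have := Int.le_of_dvd one_pos h3
    omega
  have hk1 : 1 < q ^ 2 * b := by
    have : 4 ≤ q ^ 2 := by nlinarith
    nlinarith
  have hl1 : 1 < q ^ (2 * m + 1) := Nat.one_lt_pow (by omega) (by omega)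
  -- the element
  have hcu := card_units_eq hF
  obtain ⟨ζ, hζ⟩ := exists_prime_orderOf_dvd_card' (G := Fˣ) p (by rw [hcu]; exact Dvd.dvd.mul_left hpq _)
  have hζp : (ζ : F) ^ p = 1 := by
    have h1 := pow_orderOf_eq_one ζ
    rw [hζ] at h1
    rw [← Units.val_pow_eq_pow_val, h1, Units.val_one]
  have hζq : (ζ : F) ^ q = ζ := by
    obtain ⟨c, hc⟩ := hpq
    have h1 : q = p * c + 1 := by omega
    rw [h1, pow_succ, pow_mul, hζp, one_pow, one_mul]
  have hζ1 : (ζ : F) ≠ 1 := by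
    intro h
    have h1 : ζ = 1 := Units.ext h
    rw [h1, orderOf_one] at hζ
    exact hp.out.one_lt.ne hζ
  have hζ2 : (ζ : F) ^ 2 ≠ 1 := by
    intro h
    have h1 : ζ ^ 2 = 1 := Units.ext (by rw [Units.val_pow_eq_pow_val, h, Units.val_one])
    have h2 := orderOf_dvd_of_pow_eq_one h1
    rw [hζ] at h2
    exact hp2 ((Nat.prime_dvd_prime_iff_eq hp.out Nat.prime_two).1 h2)
  obtain ⟨u, w, H⟩ := exists_frame (F := F) (q := q) (n := m + 2) hF (by omega)
  obtain ⟨z, hzp, hz⟩ := exists_z hF H.ee H.ff H.ef ζ.ne_zero hζq hζp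
  have hz1 : pr (m + 2) F q z ^ p ^ 1 = 1 := by rw [pow_one, ← map_pow, hzp, map_one]
  have hfe : hermForm (m + 2) F q w u = 1 := by rw [herm_swap hF u w, H.ef, one_pow]
  have hzx : pr (m + 2) F q z • mk hF hn3 u (e0 H.ef) H.ee = mk hF hn3 u (e0 H.ef) H.ee := by
    rw [fix_iff hF hn3 H.ee H.ff H.ef]
    refine ⟨ζ, ζ.ne_zero, ?_⟩
    rw [hz, H.ee, H.ef, mul_zero, zero_smul, add_zero, mul_one, sub_smul, one_smul]
    abel
  have hrow := fun (r s : ℤ) (h1 : ((q ^ 2 * b : ℕ) : ℤ) * (r + s + b) = ((q ^ 2 * b : ℕ) : ℤ) * ((q ^ 2 * b : ℕ) : ℤ) -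
      ((q ^ 2 * b : ℕ) : ℤ) - ((q ^ (2 * m + 1) : ℕ) : ℤ) * b) (h2 : r * s = b - ((q ^ 2 * b : ℕ) : ℤ)) (hs : 1 ≤ s)
      (hps : (p : ℤ) ∣ s) (hpr : ¬ (p : ℤ) ∣ r) =>
    rowA_of_point hr3 hne (inj_of_r3 hr3 hk1 hl1) hxy hR hcom h1 h2 hs hps hpr hpk hz1 hzx
      (loc_one hF hn3 H.ee H.ff H.ef ζ.ne_zero hζ1 hζ2 hz) (loc_two hF hn3 H.ee H.ff H.ef ζ.ne_zero hζ1 hζ2 hz)
      (hst hF hn3 (by rintro ⟨h, -⟩; omega))
  rcases Nat.even_or_odd m with hev | hod
  · have he1 : e = 1 := by rw [he]; exact hev.neg_one_pow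
    rw [he1] at hb'
    refine hrow (-(Q ^ (m - 1) + 1)) (Q ^ m - 1) ?_ ?_ ?_ ?_ ?_
    · rw [hl, hkl]
      rw [← hQ] at hm0 hP
      rw [hm0, ← hP]
      linear_combination (-(Q ^ 2 * b)) * hb'
    · rw [hkl]
      rw [← hQ] at hm0 hP
      rw [hm0, ← hP]
      linear_combination hb'
    · rw [← hQ] at hm0
      rw [hm0]
      nlinarith
    · rw [hQ]
      exact dvd_pow_sub_one hpq' m
    · rw [hQ, Int.dvd_neg]
      exact not_dvd_pow_add_one hp2 hpq' _
  · have he1 : e = -1 := by rw [he]; exact hod.neg_one_pow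
    rw [he1] at hb'
    refine hrow (-(Q ^ m + 1)) (Q ^ (m - 1) - 1) ?_ ?_ ?_ ?_ ?_
    · rw [hl, hkl]
      rw [← hQ] at hm0 hP
      rw [hm0, ← hP]
      linear_combination (-(Q ^ 2 * b)) * hb'
    · rw [hkl]
      rw [← hQ] at hm0 hP
      rw [hm0, ← hP]
      linear_combination hb'
    · rw [← hQ] at hP
      rw [← hP]
      omega
    · rw [hQ]
      exact dvd_pow_sub_one hpq' _
    · rw [hQ, Int.dvd_neg]
      exact not_dvd_pow_add_one hp2 hpq' _

end Cfsg.Agent.H314.CY.Psu
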